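import Cfsg.Agent.Lib.Helper95.BalOM.Defs
import Cfsg.Agent.Lib.Helper49.CDOdd

set_option autoImplicit false

/-! Rung SQ of the ladder BAL-OM: squares of isometries lie in the commutator subgroup. -/

namespace Cfsg.Agent.Lib.Helper95.BalOM

open QuadraticMap Module Cfsg.Agent.Lib.Helper49

universe u v

theorem sq_mem_commutator {k : Type u} {W : Type v} [Field k] [Fintype k] [AddCommGroup W]
    [Module k W] [FiniteDimensional k W] {Q : QuadraticForm k W} (h2 : (2 : k) ≠ 0)
    (hQ : (polarBilin Q).Nondegenerate) (z : ↥(OG Q)) : z * z ∈ commutator ↥(OG Q) := by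
  obtain ⟨vs, -, hvs⟩ := exists_reflProd_eq Q h2 hQ z
  have key : ∀ vs : List W, reflProd Q vs * reflProd Q vs ∈ commutator ↥(OG Q) := by
    intro vs
    rw [← QuotientGroup.eq_one_iff, QuotientGroup.mk_mul]
    induction vs with
    | nil => simp
    | cons v vs ih =>
      rw [reflProd_cons, QuotientGroup.mk_mul]
      have hc : ∀ x y : ↥(OG Q) ⧸ commutator ↥(OG Q), x * y = y * x := by
        intro x y
        exact mul_comm (G := Abelianization ↥(OG Q)) x y
      have h1 : ((refl Q v : ↥(OG Q)) : ↥(OG Q) ⧸ commutator ↥(OG Q)) * (refl Q v : ↥(OG Q)) = 1 := by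
        rw [← QuotientGroup.mk_mul, refl_mul_self]; rfl
      calc ((refl Q v : ↥(OG Q)) : ↥(OG Q) ⧸ commutator ↥(OG Q)) * (reflProd Q vs : ↥(OG Q)) *
            ((refl Q v : ↥(OG Q)) * (reflProd Q vs : ↥(OG Q)))
          = ((refl Q v : ↥(OG Q)) : ↥(OG Q) ⧸ commutator ↥(OG Q)) *
            ((reflProd Q vs : ↥(OG Q)) * (refl Q v : ↥(OG Q))) * (reflProd Q vs : ↥(OG Q)) := by
            simp only [mul_assoc]
        _ = ((refl Q v : ↥(OG Q)) : ↥(OG Q) ⧸ commutator ↥(OG Q)) * (refl Q v : ↥(OG Q)) *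
            ((reflProd Q vs : ↥(OG Q)) * (reflProd Q vs : ↥(OG Q))) := by
            rw [hc (reflProd Q vs : ↥(OG Q)) (refl Q v : ↥(OG Q))]
            simp only [mul_assoc]
        _ = 1 := by rw [h1, ih, one_mul]
  rw [hvs]
  exact key vs

end Cfsg.Agent.Lib.Helper95.BalOM
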